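import Mathlib
import Cfsg.Agent.FixBN.ReduceMain
import Cfsg.Agent.FixBN.SylSub
import Cfsg.Agent.Lib.ThompsonPQ
import Cfsg.Agent.SignalizersComponents.CoreOfCentralizer
/-!
# The core of the centraliser of an involution modulo a central subgroup of `F*(G)` (helper998)

* `core_image_two` : `Z` a normal 2-subgroup: `O(C_G(x))` goes into `O(C_{G/Z}(x))`;
* `core_image_odd` : `N` a normal subgroup of odd order: the same.
-/

set_option autoImplicit false
set_option linter.unusedSectionVars false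

namespace Cfsg.Agent.H998.UnbDC

open Cfsg Subgroup

variable {G : Type*} [Group G] [Finite G]

/-- odd subnormal subgroups of `C_G(x)` lie in `O(C_G(x))` -/
theorem le_cpc {x : G} {E : Subgroup G} (hE : E ≤ centralizer ({x} : Set G))
    (hn : (E.subgroupOf (centralizer ({x} : Set G))).IsSubnormal) (ho : Odd (Nat.card E)) :
    E ≤ centralizerPPrimeCore 2 x := by
  have h1 : E.subgroupOf (centralizer ({x} : Set G)) ≤ pPrimeCore 2 ↥(centralizer ({x} : Set G)) := by
    refine Lib.PComponents.le_pPrimeCore_of_isSubnormal hn ?_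
    rw [Nat.card_congr (subgroupOfEquivOfLe hE).toEquiv]
    exact Nat.coprime_two_right.2 ho
  intro e he
  exact ⟨⟨e, hE he⟩, h1 he, rfl⟩

theorem cpc_odd (x : G) : Odd (Nat.card ↥(centralizerPPrimeCore 2 x)) :=
  Nat.coprime_two_right.1 (SignalizersComponents.CoreOfCentralizer.card_centralizerPPrimeCore_coprime 2 x)

theorem cpc_le (x : G) : centralizerPPrimeCore 2 x ≤ centralizer ({x} : Set G) :=
  SignalizersComponents.CoreOfCentralizer.centralizerPPrimeCore_le 2 x

theorem cpc_conj (x : G) {c : G} (hc : c ∈ centralizer ({x} : Set G)) {e : G} (he : e ∈ centralizerPPrimeCore 2 x) :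
    c * e * c⁻¹ ∈ centralizerPPrimeCore 2 x := by
  have h := SignalizersComponents.CoreOfCentralizer.centralizer_le_normalizer_centralizerPPrimeCore 2 x hc
  exact (mem_normalizer_iff.1 h e).1 he

/-- `Z` a normal 2-subgroup -/
theorem core_image_two {Z : Subgroup G} [hZn : Z.Normal] (hZ : IsPGroup 2 ↥Z) {x : G} (hx : x * x = 1) :
    (centralizerPPrimeCore 2 x).map (QuotientGroup.mk' Z) ≤ centralizerPPrimeCore 2 (QuotientGroup.mk' Z x) := by
  set E := centralizerPPrimeCore 2 x with hE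
  set C := centralizer ({x} : Set G) with hC
  have hEC : E ≤ C := cpc_le x
  have hodd : Odd (Nat.card E) := cpc_odd x
  have h2 : Fact (Nat.Prime 2) := ⟨Nat.prime_two⟩
  have hbot : ∀ z ∈ Z, z ∈ E → z = 1 := by
    intro z hz hzE
    obtain ⟨k, hk⟩ := hZ ⟨z, hz⟩
    have h1 : z ^ 2 ^ k = 1 := congrArg Subtype.val hk
    have h3 : orderOf z ∣ Nat.card E := by
      have := orderOf_dvd_natCard (⟨z, hzE⟩ : E)
      rwa [Subgroup.orderOf_mk] at this
    have h4 : (Nat.card E).Coprime (2 ^ k) := Nat.Coprime.pow_right k (Nat.coprime_two_right.2 hodd)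
    exact orderOf_eq_one_iff.1 (Nat.eq_one_of_dvd_coprimes h4 h3 (orderOf_dvd_of_pow_eq_one h1))
  have hzp : IsPGroup 2 ↥(zpowers x) := by
    rintro ⟨_, n, rfl⟩
    refine ⟨1, Subtype.ext ?_⟩
    change (x ^ n) ^ 2 ^ 1 = 1
    rw [pow_one, ← zpow_natCast, ← zpow_mul, mul_comm, zpow_mul, zpow_natCast, pow_two, hx, one_zpow]
  have hEZ : E ≤ centralizer (Z : Set G) := by
    refine Lib.ThompsonPQ.thompson_p_times_q 2 (zpowers x) E Z hzp (Nat.coprime_two_right.2 hodd) hZ ?_ ?_ ?_ ?_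
    · rw [zpowers_le, mem_centralizer_iff]
      intro e he
      exact mem_centralizer_singleton_iff.1 (hEC he)
    · rw [normalizer_eq_top_iff.2 hZn]; exact le_top
    · rw [normalizer_eq_top_iff.2 hZn]; exact le_top
    · rintro z ⟨hz, hzx⟩
      have hzC : z ∈ C := by
        rw [hC, mem_centralizer_singleton_iff]
        exact (mem_centralizer_iff.1 hzx x (mem_zpowers x)).symm
      rw [mem_centralizer_iff]
      intro e he
      have h3 : z * e * z⁻¹ ∈ E := cpc_conj x hzC he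
      have h4 : z * e * z⁻¹ * e⁻¹ ∈ E := mul_mem h3 (inv_mem he)
      have h5 : z * e * z⁻¹ * e⁻¹ ∈ Z := by
        have : z * e * z⁻¹ * e⁻¹ = z * (e * z⁻¹ * e⁻¹) := by group
        rw [this]
        exact mul_mem hz (hZn.conj_mem _ (inv_mem hz) e)
      have h6 := hbot _ h5 h4
      calc e * z = (z * e * z⁻¹ * e⁻¹) * e * z := by rw [h6, one_mul]
        _ = z * e := by group
  -- the chain
  set Ct := (centralizer ({QuotientGroup.mk' Z x} : Set (G ⧸ Z))).comap (QuotientGroup.mk' Z) with hCt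
  have hCtm : ∀ g, g ∈ Ct ↔ g * x * g⁻¹ * x⁻¹ ∈ Z := by
    intro g
    rw [hCt, mem_comap, mem_centralizer_singleton_iff, ← map_mul, ← map_mul, ← QuotientGroup.eq_one_iff,
      QuotientGroup.mk'_apply, QuotientGroup.mk'_apply]
    constructor
    · intro h
      calc ((g * x * g⁻¹ * x⁻¹ : G) : G ⧸ Z) = ((g * x : G) : G ⧸ Z) * ((x * g : G) : G ⧸ Z)⁻¹ := by
            rw [← QuotientGroup.mk_inv, ← QuotientGroup.mk_mul]; congr 1; group
        _ = 1 := by rw [h, mul_inv_cancel]
    · intro h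
      rw [← mul_inv_eq_one, ← QuotientGroup.mk_inv, ← QuotientGroup.mk_mul, ← h]
      congr 1
      group
  set M := Ct ⊓ centralizer (Z : Set G) with hM
  set M0 := C ⊓ centralizer (Z : Set G) with hM0
  have hM0M : M0 ≤ M := by
    rintro g ⟨hg, hgz⟩
    refine ⟨(hCtm g).2 ?_, hgz⟩
    have h3 : g * x = x * g := mem_centralizer_singleton_iff.1 hg
    have : g * x * g⁻¹ * x⁻¹ = 1 := by rw [h3]; group
    rw [this]
    exact one_mem Z
  have s1 : (M.subgroupOf Ct).IsSubnormal := by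
    apply Subgroup.Normal.isSubnormal
    constructor
    intro n hn g
    rw [mem_subgroupOf] at hn ⊢
    refine ⟨(g * n * g⁻¹ : ↥Ct).2, ?_⟩
    have h3 : (centralizer (Z : Set G)).Normal := inferInstance
    exact h3.conj_mem _ hn.2 g
  have s2 : (M0.subgroupOf Ct).IsSubnormal := by
    refine FixBN.SylSub.subnormal_trans hM0M inf_le_left ?_ s1
    intro g hgM c hcM
    have hg : g ∈ Ct := hgM.1
    have hgz : g ∈ centralizer (Z : Set G) := hgM.2
    have hc : c ∈ centralizer ({x} : Set G) := hcM.1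
    have hcz : c ∈ centralizer (Z : Set G) := hcM.2
    refine Subgroup.mem_inf.2 ⟨?_, mul_mem (mul_mem hgz hcz) (inv_mem hgz)⟩
    rw [hC, mem_centralizer_singleton_iff]
    rw [mem_centralizer_singleton_iff] at hc
    obtain ⟨z, hz, hzx⟩ : ∃ z ∈ Z, g * x * g⁻¹ = z * x := ⟨_, (hCtm g).1 hg, by group⟩
    have hcz' : (g * c * g⁻¹) * z = z * (g * c * g⁻¹) :=
      (mem_centralizer_iff.1 (mul_mem (mul_mem hgz hcz) (inv_mem hgz)) z hz).symm
    have e1 : x * g = z⁻¹ * g * x := by
      calc x * g = z⁻¹ * (z * x) * g := by group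
        _ = z⁻¹ * (g * x * g⁻¹) * g := by rw [hzx]
        _ = z⁻¹ * g * x := by group
    have e2 : x * g⁻¹ = g⁻¹ * z * x := by
      calc x * g⁻¹ = g⁻¹ * (g * x * g⁻¹) := by group
        _ = g⁻¹ * z * x := by rw [hzx]; group
    symm
    calc x * (g * c * g⁻¹) = (x * g) * c * g⁻¹ := by group
      _ = z⁻¹ * g * (x * c) * g⁻¹ := by rw [e1]; group
      _ = z⁻¹ * g * c * (x * g⁻¹) := by rw [← hc]; group
      _ = z⁻¹ * ((g * c * g⁻¹) * z) * x := by rw [e2]; group
      _ = g * c * g⁻¹ * x := by rw [hcz']; group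
  have s3 : (E.subgroupOf Ct).IsSubnormal :=
    FixBN.SylSub.subnormal_trans (le_inf hEC hEZ) (hM0M.trans inf_le_left)
      (fun g hg e he => cpc_conj x hg.1 he) s2
  have hmap : Ct.map (QuotientGroup.mk' Z) = centralizer ({QuotientGroup.mk' Z x} : Set (G ⧸ Z)) :=
    map_comap_eq_self_of_surjective (QuotientGroup.mk'_surjective Z) _
  have hECt : E ≤ Ct := (le_inf hEC hEZ).trans (hM0M.trans inf_le_left)
  have s4 := FixBN.Reduce.subnormal_map (QuotientGroup.mk' Z) hECt s3
  rw [hmap] at s4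
  refine le_cpc ?_ s4 (FixBN.Reduce.odd_map _ hodd)
  rw [← hmap]
  exact map_mono hECt

/-- `N` a normal subgroup of odd order -/
theorem core_image_odd {N : Subgroup G} [hNn : N.Normal] (hN : Odd (Nat.card ↥N)) {x : G} (hx : x * x = 1) :
    (centralizerPPrimeCore 2 x).map (QuotientGroup.mk' N) ≤ centralizerPPrimeCore 2 (QuotientGroup.mk' N x) := by
  have h1 := FixBN.Reduce.map_centralizer hN hx
  refine le_cpc ?_ ?_ (FixBN.Reduce.odd_map _ (cpc_odd x))
  · rw [← h1]
    exact map_mono (cpc_le x)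
  · rw [← h1]
    refine FixBN.Reduce.subnormal_map _ (cpc_le x) (Subgroup.Normal.isSubnormal ⟨?_⟩)
    intro n hn g
    exact cpc_conj x g.2 hn

/-- transport along an isomorphism -/
theorem core_image_equiv {H : Type*} [Group H] [Finite H] (e : G ≃* H) (x : G) :
    (centralizerPPrimeCore 2 x).map e.toMonoidHom ≤ centralizerPPrimeCore 2 (e x) := by
  have h1 : (centralizer ({x} : Set G)).map e.toMonoidHom = centralizer ({e x} : Set H) := by
    ext y
    constructor
    · rintro ⟨g, hg, rfl⟩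
      rw [SetLike.mem_coe, mem_centralizer_singleton_iff] at hg
      rw [mem_centralizer_singleton_iff]
      change e g * e x = e x * e g
      rw [← map_mul, hg, map_mul]
    · intro hy
      rw [mem_centralizer_singleton_iff] at hy
      refine ⟨e.symm y, ?_, e.apply_symm_apply y⟩
      rw [SetLike.mem_coe, mem_centralizer_singleton_iff]
      apply e.injective
      rw [map_mul, map_mul, e.apply_symm_apply, hy]
  refine le_cpc ?_ ?_ (FixBN.Reduce.odd_map _ (cpc_odd x))
  · rw [← h1]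
    exact map_mono (cpc_le x)
  · rw [← h1]
    refine FixBN.Reduce.subnormal_map _ (cpc_le x) (Subgroup.Normal.isSubnormal ⟨?_⟩)
    intro n hn g
    exact cpc_conj x g.2 hn

/-- the elements of odd order of a normal abelian subgroup -/
theorem exists_odd_part {Z : Subgroup G} (hZn : Z.Normal) (hZc : ∀ a ∈ Z, ∀ b ∈ Z, a * b = b * a) :
    ∃ N : Subgroup G, N.Normal ∧ N ≤ Z ∧ Odd (Nat.card N) ∧ ∀ z ∈ Z, Odd (orderOf z) → z ∈ N := by
  let N : Subgroup G :=
    { carrier := {z | z ∈ Z ∧ Odd (orderOf z)}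
      one_mem' := ⟨one_mem Z, by rw [orderOf_one]; exact odd_one⟩
      mul_mem' := by
        rintro a b ⟨ha, ha'⟩ ⟨hb, hb'⟩
        refine ⟨mul_mem ha hb, ?_⟩
        have h1 : orderOf (a * b) ∣ orderOf a * orderOf b :=
          (show Commute a b from hZc a ha b hb).orderOf_mul_dvd_mul_orderOf
        exact (ha'.mul hb').of_dvd_nat h1
      inv_mem' := by
        rintro a ⟨ha, ha'⟩
        exact ⟨inv_mem ha, by rw [orderOf_inv]; exact ha'⟩ }
  refine ⟨N, ⟨?_⟩, fun z hz => hz.1, ?_, fun z hz ho => ⟨hz, ho⟩⟩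
  · rintro n ⟨hn, hn'⟩ g
    refine ⟨hZn.conj_mem n hn g, ?_⟩
    have h1 : orderOf (MulAut.conj g n) = orderOf n := orderOf_injective (MulAut.conj g).toMonoidHom
      (MulAut.conj g).injective n
    change Odd (orderOf (g * n * g⁻¹))
    rw [show g * n * g⁻¹ = MulAut.conj g n from rfl, h1]
    exact hn'
  · by_contra hne
    rw [Nat.not_odd_iff_even, even_iff_two_dvd] at hne
    have : Fact (Nat.Prime 2) := ⟨Nat.prime_two⟩
    obtain ⟨y, hy⟩ := exists_prime_orderOf_dvd_card' 2 hne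
    have h1 : Odd (orderOf (y : G)) := y.2.2
    rw [Subgroup.orderOf_coe, hy] at h1
    exact absurd h1 (by decide)

/-- **`O(C_G(x))` goes into `O(C_{G/Z}(x))`** for a normal abelian subgroup `Z`. -/
theorem core_image {Z : Subgroup G} [hZn : Z.Normal] (hZc : ∀ a ∈ Z, ∀ b ∈ Z, a * b = b * a) {x : G}
    (hx : x * x = 1) :
    (centralizerPPrimeCore 2 x).map (QuotientGroup.mk' Z) ≤ centralizerPPrimeCore 2 (QuotientGroup.mk' Z x) := by
  obtain ⟨N, hNn, hNZ, hN, hmem⟩ := exists_odd_part hZn hZc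
  let Z1 : Subgroup (G ⧸ N) := Z.map (QuotientGroup.mk' N)
  have hZ1n : Z1.Normal := hZn.map _ (QuotientGroup.mk'_surjective N)
  have hZ1 : IsPGroup 2 ↥Z1 := by
    rintro ⟨_, z, hz, rfl⟩
    obtain ⟨k, m, hm, hkm⟩ := Nat.exists_eq_two_pow_mul_odd (n := orderOf z) (orderOf_pos z).ne'
    refine ⟨k, Subtype.ext ?_⟩
    change (QuotientGroup.mk' N z) ^ 2 ^ k = 1
    rw [← map_pow]
    refine (QuotientGroup.eq_one_iff _).2 (hmem _ (pow_mem hz _) ?_)
    rw [orderOf_pow_of_dvd (pow_pos two_pos k).ne' ⟨m, hkm⟩, hkm, Nat.mul_div_cancel_left _ (pow_pos two_pos k)]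
    exact hm
  let e : (G ⧸ N) ⧸ Z1 ≃* G ⧸ Z := QuotientGroup.quotientQuotientEquivQuotient N Z hNZ
  have he : ∀ g : G, e (QuotientGroup.mk' Z1 (QuotientGroup.mk' N g)) = QuotientGroup.mk' Z g := fun g => rfl
  have h1 := core_image_odd hN hx
  have hx1 : (QuotientGroup.mk' N x) * (QuotientGroup.mk' N x) = 1 := by rw [← map_mul, hx, map_one]
  have h2 := core_image_two hZ1 hx1
  have h3 := core_image_equiv e (QuotientGroup.mk' Z1 (QuotientGroup.mk' N x))
  rw [he] at h3
  rintro _ ⟨g, hg, rfl⟩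
  exact h3 ⟨_, h2 ⟨_, h1 ⟨g, hg, rfl⟩, rfl⟩, rfl⟩

end Cfsg.Agent.H998.UnbDC
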