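import Mathlib
import Cfsg.Agent.H998.UnbDC.Image
import Cfsg.Agent.FixBN.BTheorem
import Cfsg.Agent.SignalizersComponents.LBalanceCore
/-!
# Groups with quasisimple `F*(G)`: reduction to `F*(G) / Z` (helper998)

`G` finite, `F = F*(G)` quasisimple of even order, `Z = C_G(F)`, `π : G → G / Z`.
-/

set_option autoImplicit false
set_option linter.unusedSectionVars false

namespace Cfsg.Agent.H998.UnbDC

open Subgroup Cfsg Cfsg.Agent.Lib Cfsg.Agent.SignalizersComponents
open Cfsg.Agent.SignalizersComponents.IntrinsicBasic Cfsg.Agent.Intrinsic.Charac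
open Cfsg.Agent.FixBN.Reduce
open scoped commutatorElement

variable {G : Type*} [Group G] [Finite G]

/-- the situation: `F` quasisimple normal of even order, `C_G(F) ≤ F` -/
structure Sit (F : Subgroup G) : Prop where
  nor : F.Normal
  qs : IsQuasisimple ↥F
  even : 2 ∣ Nat.card F
  cen : centralizer (F : Set G) ≤ F

theorem sit (hq : IsQuasisimple ↥(generalizedFittingSubgroup G))
    (heven : 2 ∣ Nat.card ↥(generalizedFittingSubgroup G)) : Sit (generalizedFittingSubgroup G) :=
  ⟨GenFitting.genFitting_normal, hq, heven, GenFitting.centralizer_genFitting_le⟩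

namespace Sit

variable {F : Subgroup G} (S : Sit F)

include S

theorem cen_comm : ∀ a ∈ centralizer (F : Set G), ∀ b ∈ centralizer (F : Set G), a * b = b * a :=
  fun a ha _ hb => mem_centralizer_iff.1 hb a (S.cen ha)

/-- odd normal subgroups of `F` are central; `[A, F] ≤ W` odd normal implies `A ≤ C(F)` -/
theorem le_cen_of_odd {A W : Subgroup G} (hW : Odd (Nat.card W)) (hWn : ∀ f ∈ F, ∀ w ∈ W, f * w * f⁻¹ ∈ W)
    (hA : ⁅A, F⁆ ≤ W) : A ≤ centralizer (F : Set G) := by
  have hFn := S.nor
  have h1 : W ⊓ F ≤ centralizer (F : Set G) := by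
    have hn : (W.subgroupOf F).Normal := ⟨fun w hw f => hWn f f.2 w hw⟩
    rcases ComponentSolvable.quasisimple_normal_cases S.qs (N := W.subgroupOf F) hn with h1 | h1
    · exfalso
      rw [subgroupOf_eq_top] at h1
      have h2 := Subgroup.card_dvd_of_le h1
      exact (Nat.not_even_iff_odd.mpr hW) (even_iff_two_dvd.mpr (S.even.trans h2))
    · rintro x ⟨hx, hxF⟩
      rw [mem_centralizer_iff]
      intro y hy
      have h2 := mem_center_iff.mp (h1 (show (⟨x, hxF⟩ : F) ∈ _ from hx)) ⟨y, hy⟩
      exact congrArg Subtype.val h2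
  rw [← commutator_eq_bot_iff_le_centralizer]
  apply ComponentSolvable.commutator_eq_bot_of_perfect S.qs.1
  rw [commutator_eq_bot_iff_le_centralizer]
  exact le_trans (le_inf hA (Subgroup.commutator_le_right _ _)) h1

/-- the 2-components of `G` are in `F` -/
theorem pcomp_le {K : Subgroup G} (hK : IsPComponent 2 K) : K ≤ F := by
  have : Fact (Nat.Prime 2) := ⟨Nat.prime_two⟩
  rcases LBalanceCore.pcomp_le_or_commutator_le hK S.nor with h | h
  · exact h
  · exfalso
    have h1 := S.le_cen_of_odd (W := pPrimeCore 2 G) (Nat.coprime_two_right.1 (Cores.pPrimeCore_coprime 2))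
      (fun f _ w hw => (Cores.pPrimeCore_normal 2).conj_mem w hw f) h
    have h2 : ⁅K, K⁆ = ⊥ := by
      rw [commutator_eq_bot_iff_le_centralizer]
      intro k hk
      rw [mem_centralizer_iff]
      intro l hl
      exact S.cen_comm l (h1 hl) k (h1 hk)
    rw [PComponents.pcomp_perfect hK] at h2
    have h3 := PComponents.prime_dvd_card_pcomp hK
    rw [h2, Subgroup.card_bot] at h3
    omega

/-- the 2-components of the centralisers of involutions are in `F` -/
theorem tc_le {a : G} (ha : a * a = 1) {J : Subgroup G} (hJ : TC (centralizer ({a} : Set G)) J) : J ≤ F := by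
  refine (le_pLayer ha hJ).trans (sSup_le fun K hK => S.pcomp_le hK)

variable {X : Type*} [Group X] [Finite X] {π : G →* X} (hπ : Function.Surjective π)
  (hk : π.ker = centralizer (F : Set G))

include hπ hk

/-- the image of `F` has trivial centraliser -/
theorem cen_map : centralizer ((F.map π : Subgroup X) : Set X) = ⊥ := by
  have h1 : (centralizer ((F.map π : Subgroup X) : Set X)).comap π ≤ centralizer (F : Set G) := by
    rw [← commutator_eq_bot_iff_le_centralizer]
    apply ComponentSolvable.commutator_eq_bot_of_perfect S.qs.1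
    rw [commutator_eq_bot_iff_le_centralizer, ← hk, ← Subgroup.map_eq_bot_iff, Subgroup.map_commutator,
      map_comap_eq_self_of_surjective hπ, commutator_eq_bot_iff_le_centralizer]
  rw [← hk] at h1
  rw [eq_bot_iff, ← map_comap_eq_self_of_surjective hπ (centralizer ((F.map π : Subgroup X) : Set X))]
  rw [le_bot_iff, Subgroup.map_eq_bot_iff]
  exact h1

omit hπ in
/-- the image of `F` is `F / Z(F)` -/
theorem exists_equiv : Nonempty (↥F ⧸ center ↥F ≃* ↥(F.map π)) := by
  have h1 : (π.subgroupMap F).ker = center ↥F := by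
    ext f
    rw [MonoidHom.mem_ker, mem_center_iff]
    constructor
    · intro h g
      have h2 : (f : G) ∈ π.ker := congrArg Subtype.val h
      rw [hk] at h2
      exact Subtype.ext (mem_centralizer_iff.1 h2 g g.2)
    · intro h
      apply Subtype.ext
      change π (f : G) = 1
      rw [← MonoidHom.mem_ker, hk, mem_centralizer_iff]
      intro g hg
      exact congrArg Subtype.val (h ⟨g, hg⟩)
  exact ⟨(QuotientGroup.quotientMulEquivOfEq h1.symm).trans
    (QuotientGroup.quotientKerEquivOfSurjective _ (π.subgroupMap_surjective F))⟩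

omit hπ in
theorem simple_map : IsSimpleGroup ↥(F.map π) := by
  obtain ⟨e⟩ := S.exists_equiv hk
  have := S.qs.2
  exact e.symm.isSimpleGroup

omit hπ in
theorem not_comm_map : ¬ IsMulCommutative ↥(F.map π) := by
  intro h
  have h1 : Group.IsPerfect ↥(F.map π) := by
    have := S.qs.1
    exact Group.IsPerfect.ofSurjective (π.subgroupMap_surjective F)
  have h2 : (_root_.commutator ↥(F.map π)) = ⊥ := by
    rw [_root_.commutator_def, Subgroup.commutator_eq_bot_iff_le_centralizer]
    intro x _
    rw [mem_centralizer_iff]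
    intro y _
    exact h.is_comm.comm y x
  rw [h1.commutator_eq_top] at h2
  have := (S.simple_map hk).toNontrivial
  exact top_ne_bot h2

theorem genFitting_map : generalizedFittingSubgroup X = F.map π :=
  FixBN.BTheorem.genFitting_eq (S.nor.map π hπ) (S.simple_map hk) (S.not_comm_map hk) (S.cen_map hπ hk)

/-- `2`-components of `C_G(a)` in the simple group `F / Z(F)` -/
theorem tc_map' {a : G} (ha : a * a = 1) {J : Subgroup G} (hJ : TC (centralizer ({a} : Set G)) J) :
    TC (F.map π ⊓ centralizer ({π a} : Set X)) (J.map π) := by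
  have hJF := S.tc_le ha hJ
  have hFn := S.nor
  -- restriction to `F`
  have h1 : TC (F ⊓ centralizer ({a} : Set G)) J := by
    obtain ⟨h1, h2, h3, h4⟩ := tc_iff.mp hJ
    exact tc_iff.mpr ⟨le_inf hJF h1, FixBN.SylSub.subnormal_of_le (le_inf hJF h1) inf_le_right h2, h3, h4⟩
  rcases tc_map π h1 with h2 | h2
  · exfalso
    rw [Subgroup.map_eq_bot_iff, hk] at h2
    have h3 := tc_perfect h1
    have h4 : ⁅J, J⁆ = ⊥ := by
      rw [commutator_eq_bot_iff_le_centralizer]
      intro k hk
      rw [mem_centralizer_iff]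
      intro l hl
      exact S.cen_comm l (h2 hl) k (h2 hk)
    rw [Subgroup.isPerfect_iff.mp h3] at h4
    have h5 := even_card h1
    rw [h4, Subgroup.card_bot] at h5
    omega
  · refine extend h2 ?_ (Subgroup.Normal.isSubnormal ⟨?_⟩)
    · rintro _ ⟨x, hx, rfl⟩
      have hxa := mem_centralizer_singleton_iff.1 hx.2
      refine Subgroup.mem_inf.2 ⟨⟨x, hx.1, rfl⟩, ?_⟩
      rw [mem_centralizer_singleton_iff, ← map_mul, hxa, map_mul]
    · intro n hn g
      rw [mem_subgroupOf] at hn
      obtain ⟨c, hc, hcn⟩ := hn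
      have hcF : c ∈ F := hc.1
      have hca := mem_centralizer_singleton_iff.1 hc.2
      obtain ⟨f, hf, hfg⟩ := g.2.1
      rw [mem_subgroupOf]
      change (g : X) * (n : X) * (g : X)⁻¹ ∈ (F ⊓ centralizer ({a} : Set G)).map π
      rw [← hcn, ← hfg, ← map_mul, ← map_inv, ← map_mul]
      refine ⟨f * c * f⁻¹, Subgroup.mem_inf.2 ⟨?_, ?_⟩, rfl⟩
      · exact mul_mem (mul_mem hf hcF) (inv_mem hf)
      · rw [mem_centralizer_singleton_iff]
        have hg' : (g : X) * π a = π a * g := mem_centralizer_singleton_iff.1 g.2.2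
        -- `f a f⁻¹ = z a`, `z` centralises `F`
        have hz : f * a * f⁻¹ * a⁻¹ ∈ centralizer (F : Set G) := by
          rw [← hk, MonoidHom.mem_ker, map_mul, map_mul, map_mul, map_inv, map_inv, hfg, hg']
          group
        obtain ⟨z, hz, hza⟩ : ∃ z ∈ centralizer (F : Set G), f * a * f⁻¹ = z * a := ⟨_, hz, by group⟩
        have h5 : (f * c * f⁻¹) * z = z * (f * c * f⁻¹) :=
          mem_centralizer_iff.1 hz _ (mul_mem (mul_mem hf hcF) (inv_mem hf))
        have e1 : a * f = z⁻¹ * f * a := by
          calc a * f = z⁻¹ * (z * a) * f := by group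
            _ = z⁻¹ * (f * a * f⁻¹) * f := by rw [hza]
            _ = z⁻¹ * f * a := by group
        have e2 : a * f⁻¹ = f⁻¹ * z * a := by
          calc a * f⁻¹ = f⁻¹ * (f * a * f⁻¹) := by group
            _ = f⁻¹ * z * a := by rw [hza]; group
        symm
        calc a * (f * c * f⁻¹) = (a * f) * c * f⁻¹ := by group
          _ = z⁻¹ * f * (a * c) * f⁻¹ := by rw [e1]; group
          _ = z⁻¹ * f * c * (a * f⁻¹) := by rw [← hca]; group
          _ = z⁻¹ * ((f * c * f⁻¹) * z) * a := by rw [e2]; group
          _ = f * c * f⁻¹ * a := by rw [h5]; group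

end Sit

end Cfsg.Agent.H998.UnbDC
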